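import Cfsg.Agent.H381.Car.RowTwD4

/-!
# Carter subgroups: `³D₄(q)`, `q` odd: `K ∩ S` is a 2-group (S3852, helper381)

* `anti_inv` : `x⁻¹` is conjugate under `SL(2,K)` to the conjugate of `x` by `diag(-1, 1)`;
* `HexGrp.real_of_comm` : in `G₂(q)`, `³D₄(q)`, `q` odd, an element of odd order commuting with an involution is real;
* `two_3d4`.
-/

set_option autoImplicit false
set_option linter.unusedSectionVars false

namespace Cfsg.Agent.H381.Car

open Cfsg.Agent.SplitTwo Cfsg.Agent.TitsThree.RankTwoZ Cfsg.Agent.Lib.SL2Mat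
  Cfsg.Agent.TitsThree.RankTwoIdx Cfsg.Agent.TitsThree.RankTwoRGD Cfsg.Agent.Cit.HexBase
open scoped commutatorElement Pointwise

universe u

section Hex

theorem anti_inv {K : Type*} [Field K] {s : K} (hs : s ≠ 0) (h : s = -1) (x : SL2 K) :
    ∃ v : SL2 K, v * conjGL (dgl s hs) x * v⁻¹ = x⁻¹ := by
  subst h
  have hd := det_eq x
  by_cases hc : ent x 1 0 = 0
  · by_cases hb : ent x 0 1 = 0
    · refine ⟨wm 1 one_ne_zero, ?_⟩
      rw [mul_inv_eq_iff_eq_mul, eq_inv_mul_iff_mul_eq, conjGL_dgl_ent]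
      refine ext_ent ?_ ?_ ?_ ?_ <;>
        simp only [ent_mul, wm_00, wm_01, wm_10, wm_11, mk_00, mk_01, mk_10, mk_11, hb, hc] <;> ring_nf
      · rw [hb, hc] at hd
        linear_combination hd
      · rw [hb, hc] at hd
        linear_combination -hd
    · refine ⟨lo ((ent x 1 1 - ent x 0 0) / ent x 0 1), ?_⟩
      rw [mul_inv_eq_iff_eq_mul, eq_inv_mul_iff_mul_eq, conjGL_dgl_ent]
      refine ext_ent ?_ ?_ ?_ ?_ <;>
        simp only [ent_mul, lo_00, lo_01, lo_10, lo_11, mk_00, mk_01, mk_10, mk_11, hc]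
      · rw [hc] at hd
        field_simp
        linear_combination hd
      · field_simp
        ring
      · rw [hc] at hd
        field_simp
        linear_combination (ent x 1 1 - ent x 0 0) * hd
      · rw [hc] at hd
        field_simp
        linear_combination hd
  · refine ⟨up ((ent x 0 0 - ent x 1 1) / ent x 1 0), ?_⟩
    rw [mul_inv_eq_iff_eq_mul, eq_inv_mul_iff_mul_eq, conjGL_dgl_ent]
    refine ext_ent ?_ ?_ ?_ ?_ <;>
      simp only [ent_mul, up_00, up_01, up_10, up_11, mk_00, mk_01, mk_10, mk_11]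
    · field_simp
      linear_combination hd
    · field_simp
      linear_combination (ent x 0 0 - ent x 1 1) * hd
    · field_simp
      ring
    · field_simp
      linear_combination hd

variable {E : Type*} [Field E] {σ : E ≃+* E} {L : Type u} [Group L] (c : HexGrp σ L)

/-- elements of odd order of `C(z)` -/
theorem real_CZ [Finite E] (h2 : (2 : E) ≠ 0) {g : L} (hg : g * c.z = c.z * g) (ho : Odd (orderOf g)) :
    IsConj g g⁻¹ := by
  let ψ : SL2 E × SL2 ↥(fx σ) →* L := MonoidHom.noncommCoprod c.pb c.p4 fun x y => c.comm_pb_p4 x y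
  have hψ : ∀ x y, ψ (x, y) = c.pb x * c.p4 y := fun x y => rfl
  -- `g ^ 2` is in the image
  obtain ⟨a, ha⟩ : ∃ a, ψ a = g * g := by
    obtain ⟨x, w, s, hs, rfl⟩ := c.mem_CZ_form h2 hg
    have hs' : (s : E) ≠ 0 := fun h => hs (Subtype.ext h)
    obtain ⟨h0, hh0⟩ : ∃ h0 : L, h0 = c.pa (dg s hs) := ⟨_, rfl⟩
    have hA : c.Act h0 (s : E)⁻¹ ((s : E) ^ 2) := by rw [hh0]; exact c.act_a s hs
    obtain ⟨x', hx'⟩ : ∃ x', x' = conjGL (dgl (s : E)⁻¹ hA.ne1) x := ⟨_, rfl⟩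
    obtain ⟨w', hw'⟩ : ∃ w', w' = conjGL (dgl s hs) w := ⟨_, rfl⟩
    have e1 : h0 * c.pb x * h0⁻¹ = c.pb x' := by rw [hx']; exact hA.pb x
    have e4 : h0 * c.p4 w * h0⁻¹ = c.p4 w' := by rw [hw', hh0]; exact c.pa_dg_p4 h2 s hs w
    have e0 : h0 * h0 = (c.pb (dg (s : E) hs'))⁻¹ * c.p4 (dg s hs) := by
      rw [hh0, ← map_mul, dg_mul_dg]
      have := c.pa_dg_sq s hs
      rw [← this]
      congr 1
      refine ext_ent ?_ ?_ ?_ ?_ <;> simp <;> ring
    refine ⟨(x * x' * (dg (s : E) hs')⁻¹, w * w' * dg s hs), ?_⟩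
    rw [hψ, ← hh0]
    have k1 := c.comm_pb_p4 x' w
    have k2 := c.comm_pb_p4 (dg (s : E) hs')⁻¹ (w * w')
    simp only [map_mul, map_inv] at k2 ⊢
    calc c.pb x * c.pb x' * (c.pb (dg (s : E) hs'))⁻¹ * (c.p4 w * c.p4 w' * c.p4 (dg s hs))
        = c.pb x * c.pb x' * ((c.pb (dg (s : E) hs'))⁻¹ * (c.p4 w * c.p4 w')) * c.p4 (dg s hs) := by group
      _ = c.pb x * (c.pb x' * c.p4 w) * c.p4 w' * ((c.pb (dg (s : E) hs'))⁻¹ * c.p4 (dg s hs)) := by
        rw [k2]; group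
      _ = c.pb x * (c.p4 w * c.pb x') * c.p4 w' * (h0 * h0) := by rw [k1, e0]
      _ = c.pb x * c.p4 w * h0 * (c.pb x * c.p4 w * h0) := by rw [← e1, ← e4]; group
  obtain ⟨k, hk⟩ := ho
  obtain ⟨x, w, hxw⟩ : ∃ x w, c.pb x * c.p4 w = g := by
    refine ⟨(a ^ (k + 1)).1, (a ^ (k + 1)).2, ?_⟩
    rw [← hψ, Prod.mk.eta, map_pow, ha, ← sq, ← pow_mul, show 2 * (k + 1) = orderOf g + 1 by omega, pow_succ,
      pow_orderOf_eq_one, one_mul]
  -- conjugation
  have hm1 : ((-1 : ↥(fx σ)) : E)⁻¹ = -1 := by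
    rw [show ((-1 : ↥(fx σ)) : E) = -1 from rfl, inv_neg, inv_one]
  have hn : (-1 : ↥(fx σ)) ≠ 0 := neg_ne_zero.2 one_ne_zero
  obtain ⟨v1, hv1⟩ := anti_inv (c.act_a (-1) hn).ne1 hm1 x
  obtain ⟨v4, hv4⟩ := anti_inv hn rfl w
  rw [isConj_iff]
  refine ⟨c.pb v1 * c.p4 v4 * c.pa (dg (-1) hn), ?_⟩
  have e1 := c.pa_dg_pb (-1) hn x
  have e4 := c.pa_dg_p4 h2 (-1) hn w
  obtain ⟨m, hm⟩ : ∃ m, m = c.pa (dg (-1) hn) := ⟨_, rfl⟩
  obtain ⟨x', hx'⟩ : ∃ x', x' = conjGL (dgl ((-1 : ↥(fx σ)) : E)⁻¹ (c.act_a (-1) hn).ne1) x := ⟨_, rfl⟩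
  obtain ⟨w', hw'⟩ : ∃ w', w' = conjGL (dgl (-1) hn) w := ⟨_, rfl⟩
  rw [← hx'] at hv1 e1
  rw [← hw'] at hv4 e4
  rw [← hm] at e1 e4 ⊢
  have k1 := c.comm_pb_p4 x' v4
  have k2 := c.comm_pb_p4 v1⁻¹ v4⁻¹
  have k3 := c.comm_pb_p4 v1⁻¹ (v4 * w' * v4⁻¹)
  have k4 := c.comm_pb_p4 x⁻¹ w⁻¹
  calc c.pb v1 * c.p4 v4 * m * g * (c.pb v1 * c.p4 v4 * m)⁻¹
      = c.pb v1 * (c.p4 v4 * (m * c.pb x * m⁻¹)) * (m * c.p4 w * m⁻¹) * (c.p4 v4)⁻¹ * (c.pb v1)⁻¹ := by
        rw [← hxw]; group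
    _ = c.pb v1 * (c.pb x' * c.p4 v4) * c.p4 w' * (c.p4 v4)⁻¹ * (c.pb v1)⁻¹ := by rw [e1, e4, k1]
    _ = c.pb v1 * c.pb x' * (c.p4 (v4 * w' * v4⁻¹) * c.pb v1⁻¹) := by
        rw [map_mul, map_mul, map_inv, map_inv]; group
    _ = c.pb (v1 * x' * v1⁻¹) * c.p4 (v4 * w' * v4⁻¹) := by
        rw [← k3, ← mul_assoc, ← map_mul, ← map_mul]
    _ = g⁻¹ := by rw [hv1, hv4, ← hxw, k4, map_inv, map_inv, mul_inv_rev]

include c in
/-- **An element of odd order commuting with an involution is real.** -/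
theorem real_of_comm [Finite E] [Finite L] (h2 : (2 : E) ≠ 0) {u t : L} (ht : t * t = 1) (ht1 : t ≠ 1)
    (hut : u * t = t * u) (ho : Odd (orderOf u)) : IsConj u u⁻¹ := by
  obtain ⟨g, hg⟩ := isConj_iff.1 (c.isConj_z h2 ht ht1)
  have h1 : g * u * g⁻¹ * c.z = c.z * (g * u * g⁻¹) := by
    rw [← hg]
    calc g * u * g⁻¹ * (g * t * g⁻¹) = g * (u * t) * g⁻¹ := by group
      _ = g * t * g⁻¹ * (g * u * g⁻¹) := by rw [hut]; group
  have h2' : orderOf (g * u * g⁻¹) = orderOf u := by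
    have : g * u * g⁻¹ = MulAut.conj g u := rfl
    rw [this]
    exact orderOf_injective (MulAut.conj g).toMonoidHom (MulAut.conj g).injective u
  have h3 := real_CZ c h2 h1 (by rw [h2']; exact ho)
  have h4 : IsConj u (g * u * g⁻¹) := isConj_iff.2 ⟨g, rfl⟩
  have h5 : IsConj (g * u * g⁻¹)⁻¹ u⁻¹ := isConj_iff.2 ⟨g⁻¹, by group⟩
  exact h4.trans (h3.trans h5)

end Hex

section Row

open Subgroup Cfsg Cfsg.Lie Cfsg.Agent.BpExc Cfsg.Agent.H696.GmnUntw Cfsg.Agent.Solvable.Carter Cfsg.Agent.H18.Carter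

variable {G : Type u} [Group G] [Finite G] {S : Subgroup G} [S.Normal]

/-- **`³D₄(q)`, `q` odd: `K ∩ S` is a 2-group.** -/
theorem two_3d4 (hF : Fpf.{u}) (c : Ctx G S) {K : Type} [Field K] [Fintype K] {q : ℕ} (hq : IsPrimePow q)
    (hodd : Odd q) (hK : Fintype.card K = q ^ 3) (e : S ≃* ↥(twistedD4 K q)) :
    ∀ C : Subgroup G, IsCarter C → IsPGroup 2 ↥(C ⊓ S) := by
  intro C hC
  obtain ⟨r, n, hr, hn0, hn⟩ := (isPrimePow_nat_iff _).1 hq
  have hrr : Fact r.Prime := ⟨hr⟩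
  have h2p : Fact (Nat.Prime 2) := ⟨Nat.prime_two⟩
  have hch : CharP K r := by
    obtain ⟨p, hp⟩ := CharP.exists K
    obtain ⟨m, h1, h2⟩ := FiniteField.card K p
    have h3 : p ∣ r ^ (n * 3) := by
      rw [pow_mul, hn, ← hK, h2]
      exact dvd_pow_self p m.ne_zero
    have h4 := (Nat.prime_dvd_prime_iff_eq h1 hr).1 (h1.dvd_of_dvd_pow h3)
    rwa [h4] at hp
  have hr2 : r ≠ 2 := by
    rintro rfl
    rw [← hn] at hodd
    exact (Nat.not_even_iff_odd.2 hodd) (Nat.even_pow.2 ⟨even_two, hn0.ne'⟩)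
  have hZ : center ↥(twistedD4 K q) = ⊥ := center_eq_bot_of_simple (S1071.result hq hK)
  have heven : 2 ∣ Nat.card ↥(C ⊓ S) :=
    even_of_sylInv hF c e hr2 (sylInv_twD4 hq hK hr2 hZ) hC fun l hl hld => by
      by_contra hne
      push Not at hne
      have : Fact l.Prime := ⟨hl⟩
      exact not_dvd_of_isConj_inv c e hne.1
        (fun z hz => Cfsg.Agent.H696.GmnTwD4.isConj_inv_d4 hne.2 hn0 hn.symm hK hz) hC hld
  have h2 : (2 : K) ≠ 0 := by
    intro h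
    have h1 := (CharP.cast_eq_zero_iff K r 2).1 (by exact_mod_cast h)
    exact hr2 ((Nat.prime_dvd_prime_iff_eq hr Nat.prime_two).1 h1)
  obtain ⟨σ, -, ⟨x⟩⟩ := Cfsg.Agent.Cit.HexD4.exists_d4 hK
  have hfin : Finite ↥(twistedD4 K q) := Finite.of_equiv S e.toEquiv
  obtain ⟨t, htS, htC, ht2, htc⟩ := exists_central (S := S) hC.1 heven
  rw [IsPGroup.iff_card]
  refine ⟨_, Nat.eq_prime_pow_of_unique_prime_dvd Nat.card_pos.ne' ?_⟩
  intro l hl hld
  by_contra hne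
  have : Fact l.Prime := ⟨hl⟩
  obtain ⟨u, huS, huC, hul, huc⟩ := exists_central (S := S) hC.1 hld
  have hut : u * t = t * u := (mem_centralizer_singleton_iff.1 (huc htC)).symm
  have htt : t * t = 1 := by rw [← sq, ← ht2, pow_orderOf_eq_one]
  have ht1 : t ≠ 1 := by
    rintro rfl
    rw [orderOf_one] at ht2
    exact absurd ht2 (by norm_num)
  have h1 := real_of_comm x h2 (u := e ⟨u, huS⟩) (t := e ⟨t, htS⟩)
    (by rw [← map_mul, ← map_one e]; exact congrArg e (Subtype.ext htt))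
    (by
      intro h
      apply ht1
      have := e.injective (h.trans (map_one e).symm)
      exact congrArg Subtype.val this)
    (by rw [← map_mul, ← map_mul]; exact congrArg e (Subtype.ext hut))
    (by
      rw [MulEquiv.orderOf_eq, orderOf_mk, hul]
      exact hl.odd_of_ne_two hne)
  obtain ⟨g, hg⟩ := isConj_iff.1 h1
  have hgu : ((e.symm g : S) : G) * u * ((e.symm g : S) : G)⁻¹ = u⁻¹ := by
    have h3 := congrArg (fun y => ((e.symm y : S) : G)) hg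
    simpa using h3
  have h3 := c.eq_of_conj hC huc (g := ((e.symm g : S) : G)) (by
    rw [hgu]
    intro k hk
    rw [mem_centralizer_singleton_iff]
    have h4 : k * u = u * k := mem_centralizer_singleton_iff.mp (huc hk)
    exact (Commute.inv_right h4 : Commute k u⁻¹))
  rw [hgu] at h3
  have h4 : u * u = 1 := by nth_rewrite 1 [← h3]; rw [inv_mul_cancel]
  have h5 : orderOf u ∣ 2 := orderOf_dvd_of_pow_eq_one (by rw [sq, h4])
  rw [hul] at h5
  exact hne ((Nat.prime_dvd_prime_iff_eq hl Nat.prime_two).1 h5)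

end Row

end Cfsg.Agent.H381.Car
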